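import Cfsg.Agent.H612.Even
import Cfsg.Agent.H610.RealOdd
import Cfsg.Agent.H661.SporBase

/-!
# Bridges to `EvenOver`

The conditions `RealOdd`, `RealClosed` and `P1` on a finite group `S` imply `EvenOver S`.
-/

set_option autoImplicit false

universe u

namespace Cfsg.Agent.H612.Bridge

open Cfsg.Agent.H612.Even Cfsg.Agent.H610 Cfsg.Agent.H661.Spor

theorem of_realOdd {S : Type u} [Group S] [Finite S] (h : RealOdd S) : EvenOver S := by
  obtain ⟨y, h1, h2, h3⟩ := h
  exact of_odd S y h1 h2 h3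

theorem of_realClosed {S : Type u} [Group S] [Finite S] (h : RealClosed S) :
    EvenOver S := by
  have hp2 : Fact (Nat.Prime 2) := ⟨Nat.prime_two⟩
  obtain ⟨y, h1, h2, h3, T, hT, hT2, hTi⟩ := h
  have hdvd : ¬ 2 ∣ T.index := by
    rw [← even_iff_two_dvd, Nat.not_even_iff_odd]
    exact hTi
  obtain ⟨P, hP⟩ := hT2.exists_le_sylow
  have h4 : (P : Subgroup (Subgroup.centralizer ({y} : Set S))) = T := by
    refine (Subgroup.eq_of_le_of_card_ge hP ?_).symm
    have h5 : Nat.card P * (P : Subgroup (Subgroup.centralizer ({y} : Set S))).index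
        = Nat.card T * T.index := by
      rw [Subgroup.card_mul_index, Subgroup.card_mul_index]
    obtain ⟨j, hj⟩ := IsPGroup.iff_card.1 P.2
    have h6 : Nat.Coprime (Nat.card P) T.index := by
      rw [hj]
      exact Nat.Coprime.pow_left j ((Nat.Prime.coprime_iff_not_dvd Nat.prime_two).2 hdvd)
    exact Nat.le_of_dvd Nat.card_pos (h6.dvd_of_dvd_mul_right (h5 ▸ Dvd.intro _ rfl))
  refine of_twoClosed S y h1 h2 h3 P ?_
  rw [h4]
  exact hT

theorem of_P1 {S : Type u} [Group S] [Finite S] (h : P1 S) : EvenOver S := by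
  obtain ⟨r, hr, hr2, hc, y, hy, hreal⟩ := h
  have hfr : Fact r.Prime := ⟨hr⟩
  have hy1 : y ≠ 1 := by
    rintro rfl
    rw [orderOf_one] at hy
    exact hr.one_lt.ne hy
  set C := Subgroup.centralizer ({y} : Set S) with hC
  have hyC : y ∈ C := by rw [hC, Subgroup.mem_centralizer_singleton_iff]
  have hyo : orderOf (⟨y, hyC⟩ : C) = r := by rw [Subgroup.orderOf_mk, hy]
  have hrC : r ∣ Nat.card C := hyo ▸ orderOf_dvd_natCard _
  have hrC2 : ¬ r ^ 2 ∣ Nat.card C := fun h => hc (h.trans (Subgroup.card_subgroup_dvd_card C))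
  have hz : IsPGroup r (Subgroup.zpowers (⟨y, hyC⟩ : C)) :=
    IsPGroup.of_card (n := 1) (by rw [Nat.card_zpowers, hyo, pow_one])
  obtain ⟨P, hP⟩ := hz.exists_le_sylow
  have hPc : Nat.card P = r := card_sylow_eq P hrC hrC2
  have hPz : (P : Subgroup C) = Subgroup.zpowers (⟨y, hyC⟩ : C) :=
    (Subgroup.eq_of_le_of_card_ge hP (by rw [hPc, Nat.card_zpowers, hyo])).symm
  have hcomm : ∀ (g : C) (p : C), p ∈ (P : Subgroup C) → p * g = g * p := by
    intro g p hp
    rw [hPz] at hp
    obtain ⟨j, rfl⟩ := hp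
    have h1 : Commute (⟨y, hyC⟩ : C) g :=
      Subtype.ext (Subgroup.mem_centralizer_singleton_iff.1 g.2).symm
    exact (h1.zpow_left j).eq
  have hle : Subgroup.normalizer ((P : Subgroup C) : Set C) ≤
      Subgroup.centralizer ((P : Subgroup C) : Set C) := by
    intro g _
    rw [Subgroup.mem_centralizer_iff]
    intro p hp
    exact hcomm g p hp
  have hcomp := MonoidHom.ker_transferSylow_isComplement' P hle
  have hnd := MonoidHom.not_dvd_card_ker_transferSylow P hle
  refine of_complement S hr hr2 y hy1 ⟨1, by rw [pow_one, ← hy, pow_orderOf_eq_one]⟩ hreal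
    (MonoidHom.transferSylow P hle).ker hnd ⟨1, ?_⟩
  rw [hcomp.symm.index_eq_card, hPc, pow_one]

end Cfsg.Agent.H612.Bridge
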